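import Cfsg.Agent.Mult.Split
import Cfsg.Agent.HeC.Tabs

set_option autoImplicit false
set_option Elab.async false
set_option maxRecDepth 100000
set_option linter.all false

namespace Cfsg.Agent.HeC
open Cfsg.Agent.CGT

open Cfsg.Agent.Mult

noncomputable def u3_D : PC := ⟨3, 3, 2, 17,
  [[0, 0x14, 0x10], [0, 0, 0x10], [0, 0, 0]],
  [3, 0, 0],
  [(3, 1, 0x12), (3, 4, 0x18), (3, 0x10, 0x10)], 9, 0x101000200000002⟩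
noncomputable def u3_ds : List (List ℕ) := [[8, 4, 6, 8, 4, 6, 10, 2, 4, 12, 6, 12, 4, 2, 6, 8, 2, 4, 6, 4, 2, 6, 4, 6, 4, 8, 6, 2, 4, 6, 4, 2, 4], [12, 4, 2, 4, 12, 6, 12, 4, 2, 6, 4, 6, 8, 6, 2, 4, 6, 4, 2, 6, 10, 6, 4, 6, 10, 4, 6, 10, 8, 4, 0], [2, 12, 8, 6, 4, 6, 4, 10, 6, 2, 4, 12, 6, 12, 4, 2, 6, 4, 6, 4, 12, 6, 4, 2, 6, 4, 2, 6, 12, 10, 8, 4], [12, 10, 6, 4, 6, 10, 6, 2, 4, 12, 6, 12, 4, 2, 4, 6, 2, 0, 2, 0, 10, 12]]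
noncomputable def u3_c : Mult.Cert := ⟨14, 15, [[], [], [1]],
  [],
  [[0x54, 0, 0x1b], [0, 0x52, 9], [0, 0, 0xa2]]⟩
theorem u3_all : allB u3_D u3_c [.assoc 8 4 1, .fus 3 [2, 0] [0, 2], .fus 3 [2, 1] [1, 2], .fus 3 [0, 0, 0] [], .fus 3 [1, 1, 1] []] 12 m_ts u3_ds [180, 544, 7, 1, 0] [(0, [4]), (2, [0x10]), (1, [0x11])] = true := by decide +kernel
theorem u3_pb {G : Type*} [Group G] [Finite G] {φ : G →* Equiv.Perm ℕ} {γ : ℕ → G}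
    (M : Model φ γ 12 m_ns m_ts) (hB : IsBase φ ⊤ [180, 544, 7, 1, 0]) (hN : Nat.card G = 4030387200) : PBound G 3 0 :=
  pbound_all M hB hN (by decide +kernel) (by decide +kernel) u3_all

end Cfsg.Agent.HeC
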