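import Cfsg.Agent.Mult.Split
import Cfsg.Agent.HeC.Tabs

set_option autoImplicit false
set_option Elab.async false
set_option maxRecDepth 100000
set_option linter.all false

namespace Cfsg.Agent.HeC
open Cfsg.Agent.CGT

open Cfsg.Agent.Mult

noncomputable def u7_D : PC := ⟨7, 3, 3, 25,
  [[0, 0x48, 0x40], [0, 0, 0x40], [0, 0, 0]],
  [7, 0, 0],
  [(3, 1, 0x144), (3, 8, 0xd0), (3, 0x40, 0x40)], 11, 0x1010002020100020000⟩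
noncomputable def u7_ds : List (List ℕ) := [[4, 6, 8, 4, 6, 10, 2, 4, 12, 6, 12, 4, 2, 0, 6, 4, 6, 2, 4, 6, 4, 10, 6, 4, 2, 8, 6, 4, 6, 4], [4, 10, 6, 10, 8, 6, 2, 4, 6, 10, 2, 4, 6, 4, 2, 6, 8, 4, 6, 4, 10, 8, 2, 4, 12, 6, 12, 4, 2, 6, 4, 6, 8, 6, 12], [10, 0, 2, 6, 2, 4, 6, 10, 8, 6, 2, 4, 6, 4, 2, 4, 6, 4, 6, 2, 4, 12, 6, 12, 4, 0, 2, 10, 4], [8, 6, 12, 2, 0, 4, 6, 2, 4, 12, 6, 12, 4, 2, 6, 0, 4, 10, 6, 4, 12, 6, 4, 2, 6, 4, 8, 6, 10, 12, 6, 8, 10]]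
noncomputable def u7_c : Mult.Cert := ⟨58, 22, [[], [], [1]],
  [],
  [[0x2589, 0, 0xf5], [0, 0x1c2a, 0x157], [0, 0, 0x3846]]⟩
theorem u7_all : allB u7_D u7_c [.assoc 0x30 8 1, .fus 3 [2, 1] [1, 2], .fus 3 [2, 0] [0, 2], .fus 3 [1, 1, 1, 1, 1, 1, 1] [], .fus 3 [0, 0, 0, 0, 0, 0, 0] []] 12 m_ts u7_ds [180, 544, 7, 1, 0] [(0, [0x40, 8, 1])] = true := by decide +kernel
theorem u7_pb {G : Type*} [Group G] [Finite G] {φ : G →* Equiv.Perm ℕ} {γ : ℕ → G}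
    (M : Model φ γ 12 m_ns m_ts) (hB : IsBase φ ⊤ [180, 544, 7, 1, 0]) (hN : Nat.card G = 4030387200) : PBound G 7 0 :=
  pbound_all M hB hN (by decide +kernel) (by decide +kernel) u7_all

end Cfsg.Agent.HeC
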